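import Mathlib
import Cfsg.Agent.H646.NB.LocalP

/-!
# Abelian Sylow `p`-subgroups of simple groups with only one `p`-block (S5002, S5003)

Let `S` be a finite nonabelian simple group without a nonprincipal `p`-block, all smaller nonabelian
simple groups having one, with an abelian Sylow `p`-subgroup `P`.  Then `C_S(x) ≤ N_S(P)` for
`1 ≠ x ∈ P` (`centralizer_le_normalizer`) and `P` is a trivial intersection subgroup (`TI`).
-/

set_option autoImplicit false
open Cfsg Subgroup
open scoped Pointwise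

namespace Cfsg.Agent.H646.NB

open Cfsg.Agent.H7.NBp Cfsg.Agent.H718.NBIH
open Cfsg.Agent.Lib.Cores

variable {p : ℕ} [hp : Fact p.Prime] {S : Type*} [Group S] [Finite S] [IsSimpleGroup S]

/-- `P` is normal in `C_S(Q)` for `1 ≠ Q ≤ P`. -/
theorem centralizer_le_normalizer' (hna : ¬ IsMulCommutative S) (ih : IH p (Nat.card S))
    (hS : ¬ NB p S) (P : Sylow p S) (hab : ∀ x ∈ P, ∀ y ∈ P, x * y = y * x)
    (Q : Subgroup S) (hQ1 : Q ≠ ⊥) (hQP : Q ≤ (P : Subgroup S)) :
    centralizer (Q : Set S) ≤ normalizer ((P : Subgroup S) : Set S) := by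
  have hQ : IsPGroup p Q := P.2.to_le hQP
  have hmain := centralizer_pCore_le hna ih hS Q hQ hQ1
  have hPC : (P : Subgroup S) ≤ centralizer (Q : Set S) := by
    intro x hx
    rw [mem_centralizer_iff]
    intro y hy
    exact hab y (hQP hy) x hx
  generalize centralizer (Q : Set S) = C at hmain hPC
  let PC : Sylow p C := P.subtype hPC
  have hPCmem : ∀ c : C, c ∈ PC ↔ (c : S) ∈ P := fun c => Iff.rfl
  have h1 : pCore p C ≤ (PC : Subgroup C) := pCore_le_sylow PC
  have h2 : (PC : Subgroup C) ≤ pCore p C := by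
    intro c hc
    apply hmain
    rw [mem_centralizer_iff]
    intro d hd
    have h3 : d ∈ PC := h1 hd
    apply Subtype.ext
    exact hab _ ((hPCmem d).1 h3) _ ((hPCmem c).1 hc)
  have h3 : (PC : Subgroup C) = pCore p C := le_antisymm h2 h1
  have h4 : (PC : Subgroup C).Normal := by
    rw [h3]
    exact pCore_normal p C
  intro c hc
  rw [mem_normalizer_iff]
  intro x
  constructor
  · intro hx
    have h5 := h4.conj_mem ⟨x, hPC hx⟩ hx ⟨c, hc⟩
    exact (hPCmem _).1 h5
  · intro hx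
    have hx' : c * x * c⁻¹ ∈ C := hPC hx
    have h5 := h4.conj_mem ⟨c * x * c⁻¹, hx'⟩ hx (⟨c, hc⟩ : C)⁻¹
    have h6 := (hPCmem _).1 h5
    have h7 : ((((⟨c, hc⟩ : C)⁻¹ * ⟨c * x * c⁻¹, hx'⟩ * ((⟨c, hc⟩ : C)⁻¹)⁻¹ : C)) : S) = x := by
      show c⁻¹ * (c * x * c⁻¹) * c⁻¹⁻¹ = x
      group
    rw [h7] at h6
    exact h6

/-- `C_S(x) ≤ N_S(P)` for `1 ≠ x ∈ P`. -/
theorem centralizer_le_normalizer (hna : ¬ IsMulCommutative S) (ih : IH p (Nat.card S))
    (hS : ¬ NB p S) (P : Sylow p S) (hab : ∀ x ∈ P, ∀ y ∈ P, x * y = y * x)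
    {x : S} (hx : x ∈ P) (hx1 : x ≠ 1) :
    centralizer ({x} : Set S) ≤ normalizer ((P : Subgroup S) : Set S) := by
  have h := centralizer_le_normalizer' hna ih hS P hab (zpowers x)
    (by rwa [Ne, zpowers_eq_bot]) (zpowers_le.2 hx)
  have e : centralizer ((zpowers x : Subgroup S) : Set S) = centralizer ({x} : Set S) := by
    rw [zpowers_eq_closure]
    exact centralizer_closure _
  rwa [e] at h

/-- **`P` is a trivial intersection subgroup.** -/
theorem TI (hna : ¬ IsMulCommutative S) (ih : IH p (Nat.card S))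
    (hS : ¬ NB p S) (P : Sylow p S) (hab : ∀ x ∈ P, ∀ y ∈ P, x * y = y * x)
    (g : S) (hg : g ∉ normalizer ((P : Subgroup S) : Set S)) :
    (P : Subgroup S) ⊓ (MulAut.conj g • (P : Subgroup S)) = ⊥ := by
  rw [eq_bot_iff]
  rintro x ⟨hx, hx'⟩
  rw [mem_bot]
  by_contra hx1
  apply hg
  -- `g P g⁻¹ ≤ C(x) ≤ N(P)`
  have h1 := centralizer_le_normalizer hna ih hS P hab hx hx1
  have h2 : MulAut.conj g • (P : Subgroup S) ≤ normalizer ((P : Subgroup S) : Set S) := by
    intro y hy
    apply h1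
    rw [mem_centralizer_singleton_iff]
    obtain ⟨x', hx'P, rfl⟩ := hx'
    obtain ⟨y', hy'P, rfl⟩ := hy
    have h3 := hab x' hx'P y' hy'P
    show MulAut.conj g y' * MulAut.conj g x' = MulAut.conj g x' * MulAut.conj g y'
    rw [← map_mul, ← map_mul, h3]
  -- `P` is the only Sylow subgroup of `N(P)`
  have h3 : ((g • P : Sylow p S) : Subgroup S) ≤ normalizer ((P : Subgroup S) : Set S) := h2
  have hPN : (P : Subgroup S) ≤ normalizer ((P : Subgroup S) : Set S) := le_normalizer
  let N := normalizer ((P : Subgroup S) : Set S)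
  let P1 : Sylow p N := P.subtype hPN
  let P2 : Sylow p N := (g • P).subtype h3
  have hn : (P1 : Subgroup N).Normal := by
    show ((P : Subgroup S).subgroupOf N).Normal
    infer_instance
  have hsub : P2 = P1 := by
    have := Sylow.unique_of_normal P1 hn
    exact Subsingleton.elim _ _
  have hP : (g • P : Sylow p S) = P := by
    apply Sylow.ext
    apply le_antisymm
    · intro y hy
      have h4 : (⟨y, h3 hy⟩ : N) ∈ P2 := hy
      rw [hsub] at h4
      exact h4
    · intro y hy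
      have h4 : (⟨y, hPN hy⟩ : N) ∈ P1 := hy
      rw [← hsub] at h4
      exact h4
  exact Sylow.smul_eq_iff_mem_normalizer.1 hP

end Cfsg.Agent.H646.NB
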