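import Cfsg.Agent.H7.NBp
import Cfsg.Agent.H33.IM
import Cfsg.Agent.H123.BlockRed
import Cfsg.Agent.S4652
import Cfsg.Agent.Blocks.PrincipalSection

/-!
# Cyclic Sylow `p`-subgroups and Itô–Michler give a nonprincipal `p`-block (S5002, S5003)

The characters of a block with cyclic defect groups have height zero, so a character of degree divisible by `p` is
outside the principal block if the Sylow `p`-subgroups are cyclic.
-/

set_option autoImplicit false

open Cfsg

namespace Cfsg.Agent.H646.NBCyclic

open Cfsg.Agent.H7.NBp Cfsg.Agent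

universe u

variable {G : Type u} [Group G] [Finite G] {p : ℕ} [hp : Fact p.Prime]

omit [Finite G] hp in
theorem sInf_principal {M : Ideal AlgInt} (hM : IsPModular p M) :
    sInf ((fun ψ : IrrCharacter G => (charDegree (ψ : G → ℂ)).factorization p) '' principalBlock M G) = 0 := by
  have hMp : M.IsPrime := hM.2.1.isPrime
  apply Nat.le_zero.1
  have h1 : charDegree (fun _ : G => (1 : ℂ)) = 1 := Blocks.Basic.charDegree_of_eq (by simp)
  have h2 : (charDegree (fun _ : G => (1 : ℂ))).factorization p = 0 := by
    rw [h1]; simp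
  have h3 : (charDegree (fun _ : G => (1 : ℂ))).factorization p ∈
      ((fun ψ : IrrCharacter G => (charDegree (ψ : G → ℂ)).factorization p) ''
        principalBlock M G) :=
    ⟨⟨fun _ => 1, Blocks.Basic.isIrrCharacter_one⟩,
      Blocks.PrincipalSection.one_mem_principalBlock, rfl⟩
  rw [h2] at h3
  exact Nat.sInf_le h3

/-- The degrees in the principal block are prime to `p` if the Sylow `p`-subgroups are cyclic. -/
theorem not_dvd_degree {M : Ideal AlgInt} (hM : IsPModular p M) (P : Sylow p G)
    (hP : IsCyclic ↥(P : Subgroup G)) (hpG : p ∣ Nat.card G) {χ : IrrCharacter G}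
    (hχ : χ ∈ principalBlock M G) : ¬ p ∣ charDegree (χ : G → ℂ) := by
  have := Fintype.ofFinite G
  have hB : IsPBlock M (principalBlock M G) := Blocks.PrincipalSection.isPBlock_principalBlock
  have hBD : IsDefectGroup p M (principalBlock M G) (P : Subgroup G) := (S4652.result p M hM _).2 ⟨P, rfl⟩
  have hn : 1 ≤ (Nat.card G).factorization p :=
    (hp.out.dvd_iff_one_le_factorization (Nat.card_pos (α := G)).ne').1 hpG
  have h4 := H123.BlockRed.height_eq_zero hM hB hBD hP hn P.card_eq_multiplicity hχ
  rw [blockHeight, sInf_principal hM, Nat.sub_zero] at h4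
  intro h2
  have h5 := (hp.out.dvd_iff_one_le_factorization (Blocks.Basic.charDegree_pos χ.2).ne').1 h2
  omega

/-- **Cyclic Sylow `p`-subgroups and a character of degree divisible by `p`.** -/
theorem NB.of_cyclic_IM (h : H33.IM p G) (P : Sylow p G) (hP : IsCyclic ↥(P : Subgroup G)) : NB p G := by
  intro M hM
  have hpG := h.dvd_card
  obtain ⟨χ, hχ⟩ := h
  exact ⟨χ, fun hmem => not_dvd_degree hM P hP hpG hmem hχ⟩

end Cfsg.Agent.H646.NBCyclic
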